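import Cfsg.Agent.H329.K4.SigCol
import Cfsg.Agent.H894.DefZero
import Cfsg.Agent.Blocks.Orthogonality
import Cfsg.Agent.CharDeep.FrobKernel
import Cfsg.Agent.S0913

/-!
# New good characters inside and outside the principal `p`-block (S4947 / S4547, helper593)

`S` a finite group with `TwoC`, `p` an odd prime, `t` a `p`-singular element of odd order.

* `exists_new_in` : `Q` a set of irreducible characters invariant under the cubing automorphism with
  `∑_{χ ∈ Q} χ(1) χ(t) = 0`. If the sum of the values at `t` of some good members of `Q` is an odd integer, there is a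
  further good member of `Q`.
* `good5_of_block` : two good characters outside the principal `p`-block with an odd sum at `t` give `Good5 S`
  (`Q` the principal `p`-block and its complement).
* `notMem_of_value` : a criterion for a character to be outside the principal `p`-block.
-/

set_option autoImplicit false

namespace Cfsg.Agent.H593.K4

open Cfsg Cfsg.Agent.Characters.Core Cfsg.Agent.H601.K4 Cfsg.Agent.H601.OddDeg Cfsg.Agent.H618.Sigma
open Cfsg.Agent.Blocks.Local
open scoped ComplexConjugate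

universe u

variable {S : Type u} [Group S] [Finite S]

omit [Finite S] in
theorem redC_one_odd {M : Ideal AlgInt} [M.IsPrime] (hM : IsPModular 2 M) (χ : IrrCharacter S)
    (h : ¬ 2 ∣ charDegree (χ : S → ℂ)) : redC M ((χ : S → ℂ) 1) = 1 := by
  have hchar := charP_resField hM
  rw [Cfsg.Agent.Blocks.Basic.irr_one_eq_charDegree χ.2, redC_natCast]
  obtain ⟨m, hm⟩ := odd_iff.2 h
  rw [hm]
  push_cast
  rw [show (2 : ResField M) = 0 from by exact_mod_cast CharP.cast_eq_zero (ResField M) 2]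
  ring

omit [Finite S] in
theorem redC_one_even {M : Ideal AlgInt} [M.IsPrime] (hM : IsPModular 2 M) (χ : IrrCharacter S)
    (h : 2 ∣ charDegree (χ : S → ℂ)) : redC M ((χ : S → ℂ) 1) = 0 := by
  have hchar := charP_resField hM
  rw [Cfsg.Agent.Blocks.Basic.irr_one_eq_charDegree χ.2, redC_natCast]
  exact (CharP.cast_eq_zero_iff (ResField M) 2 _).2 h

/-- **A further good character in `Q`.** -/
theorem exists_new_in (hC : TwoC S) {k : ℕ} (hk : Cube S k) (Q : Finset (IrrCharacter S))
    (hQs : ∀ χ ∈ Q, sig hk χ ∈ Q) {t : S} (ht : Odd (orderOf t))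
    (h0 : ∑ χ ∈ Q, (χ : S → ℂ) 1 * (χ : S → ℂ) t = 0) (s : Finset (IrrCharacter S))
    (hs : ∀ χ ∈ s, χ ∈ Q ∧ Good (χ : S → ℂ)) {n : ℤ} (hn : Odd n) (hsum : ∑ χ ∈ s, (χ : S → ℂ) t = (n : ℂ)) :
    ∃ χ ∈ Q, Good (χ : S → ℂ) ∧ χ ∉ s := by
  classical
  by_contra hcon
  push Not at hcon
  obtain ⟨M, hM⟩ := Cfsg.Agent.Blocks.ExistsModular.exists_isPModular Nat.prime_two
  have hMp : M.IsPrime := hM.2.1.isPrime
  have hchar := charP_resField hM
  -- the odd members of `Q`
  let Ω := {χ : IrrCharacter S // χ ∈ Q ∧ ¬ 2 ∣ charDegree (χ : S → ℂ)}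
  have : Finite (IrrCharacter S) := finite_irr
  have := Fintype.ofFinite Ω
  have h1 : ∑ χ ∈ Q.filter (fun χ : IrrCharacter S => ¬ 2 ∣ charDegree (χ : S → ℂ)), redC M ((χ : S → ℂ) t) = 0 := by
    rw [← redC_zero (M := M), ← h0, redC_sum]
    · rw [Finset.sum_filter]
      refine Finset.sum_congr rfl fun χ _ => ?_
      rw [redC_mul (memLocalRing_irr χ _) (memLocalRing_irr χ _)]
      split_ifs with h
      · rw [redC_one_even hM χ h, zero_mul]
      · rw [redC_one_odd hM χ h, one_mul]
    · intro χ _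
      exact memLocalRing_mul (memLocalRing_irr χ _) (memLocalRing_irr χ _)
  have h2 : ∑ χ : Ω, redC M ((χ.1 : S → ℂ) t) = 0 := by
    rw [← h1]
    symm
    refine Finset.sum_subtype _ (fun χ => ?_) (fun χ : IrrCharacter S => redC M ((χ : S → ℂ) t))
    rw [Finset.mem_filter]
  let sg : Ω → Ω := fun χ => ⟨sig hk χ.1, hQs _ χ.2.1, by rw [charDegree_sig]; exact χ.2.2⟩
  have hit : ∀ (m : ℕ) (χ : Ω), ((sg^[m] χ : Ω) : IrrCharacter S) = (sig hk)^[m] χ.1 := by
    intro m
    induction m with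
    | zero => intro χ; rfl
    | succ m ih =>
      intro χ
      rw [Function.iterate_succ_apply, Function.iterate_succ_apply, ih]
  obtain ⟨e, he⟩ := hk.exists_iter
  have h3 := sum_fixed_perm (R := ResField M) sg e (fun χ => by
      apply Subtype.ext
      rw [hit]
      apply Subtype.ext
      funext g
      rw [sig_iter, he]) (fun χ => redC M ((χ.1 : S → ℂ) t)) (fun χ => by
      show redC M ((sig hk χ.1 : S → ℂ) t) = _
      rw [sig_odd hk χ.1 ht])
  rw [h2] at h3
  have h4 : ∑ χ ∈ s, redC M ((χ : S → ℂ) t) = 0 := by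
    rw [h3]
    symm
    refine Finset.sum_bij (fun (χ : Ω) _ => (χ.1 : IrrCharacter S)) ?_ ?_ ?_ ?_
    · intro χ hχ
      have h5 := (Finset.mem_filter.1 hχ).2
      have h6 : sig hk χ.1 = χ.1 := congrArg Subtype.val h5
      exact hcon _ χ.2.1 (Cfsg.Agent.H329.K4.good_of hC ⟨χ.1.2, χ.2.2⟩
        (Cfsg.Agent.H329.K4.sigFix_of_cube hk ((sig_eq_iff hk χ.1).1 h6)))
    · intro a _ b _ h
      exact Subtype.ext h
    · intro χ hχ
      refine ⟨⟨χ, (hs χ hχ).1, (hs χ hχ).2.odd.2⟩, ?_, rfl⟩
      refine Finset.mem_filter.2 ⟨Finset.mem_univ _, Subtype.ext ?_⟩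
      exact (sig_eq_iff hk χ).2 ((hs χ hχ).2.sig k hk.two hk.odd)
    · intro χ _
      rfl
  have h5 : redC M (∑ χ ∈ s, (χ : S → ℂ) t) = 0 := by
    rw [redC_sum fun χ _ => memLocalRing_irr χ t]
    exact h4
  rw [hsum, redC_eq_zero_iff (memLocalRing_intCast n), memLocalIdeal_intCast_iff hM] at h5
  exact (Int.not_even_iff_odd.2 hn) (even_iff_two_dvd.2 h5)

/-- the principal `p`-block at a `p`-singular element -/
theorem sum_block {p : ℕ} [hp : Fact p.Prime] {N : Ideal AlgInt} (hN : IsPModular p N) (Q : Finset (IrrCharacter S))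
    (hQ : ∀ χ : IrrCharacter S, χ ∈ Q ↔ χ ∈ principalBlock N S) {t : S} (ht : p ∣ orderOf t) :
    ∑ χ ∈ Q, (χ : S → ℂ) 1 * (χ : S → ℂ) t = 0 := by
  classical
  have := Fintype.ofFinite S
  have hPB : IsPBlock N (principalBlock N S) := ⟨⟨_, isIrr_one⟩, rfl⟩
  have hR := S0913.result p N hN (principalBlock N S) hPB
  have h1 := Blocks.Orthogonality.weak_block_orthogonality hN (principalBlock N S) hR (x := 1) (y := t)
    (by rw [orderOf_one, Nat.dvd_one]; exact hp.out.ne_one) ht
  have : Finite (IrrCharacter S) := finite_irr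
  rw [finsum_mem_eq_finite_toFinset_sum _ (Set.toFinite _)] at h1
  have h2 : (Set.toFinite (principalBlock N S)).toFinset = Q := by
    ext χ
    rw [Set.Finite.mem_toFinset, hQ]
  rw [h2] at h1
  have h3 := congrArg conj h1
  rw [map_sum, map_zero] at h3
  rw [← h3]
  refine Finset.sum_congr rfl fun χ _ => ?_
  rw [map_mul, Complex.conj_conj, Cfsg.Agent.Blocks.Basic.irr_one_eq_charDegree χ.2, Complex.conj_natCast]

/-- **Five good characters from two outside the principal `p`-block.** -/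
theorem good5_of_block (hC : TwoC S) {p : ℕ} [hp : Fact p.Prime] {N : Ideal AlgInt} (hN : IsPModular p N)
    {t : S} (ht : Odd (orderOf t)) (hpt : p ∣ orderOf t) {a b : IrrCharacter S} (ha : Good (a : S → ℂ))
    (hb : Good (b : S → ℂ)) (hab : a ≠ b) (haN : a ∉ principalBlock N S) (hbN : b ∉ principalBlock N S) {n : ℤ}
    (hn : Odd n) (hsum : (a : S → ℂ) t + (b : S → ℂ) t = n) : Good5 S := by
  classical
  have := Fintype.ofFinite S
  have : Finite (IrrCharacter S) := finite_irr
  have := Fintype.ofFinite (IrrCharacter S)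
  have hNp : N.IsPrime := isPrime_of_isPModular hN
  obtain ⟨k, hk⟩ := Cfsg.Agent.H329.K4.exists_cube S
  obtain ⟨e, he⟩ := hk.exists_iter
  set Q₁ : Finset (IrrCharacter S) := Finset.univ.filter fun χ => χ ∈ principalBlock N S with hQ₁
  set Q₂ : Finset (IrrCharacter S) := Finset.univ.filter fun χ => χ ∉ principalBlock N S with hQ₂
  have h1 : ∑ χ ∈ Q₁, (χ : S → ℂ) 1 * (χ : S → ℂ) t = 0 := sum_block hN Q₁ (by simp [hQ₁]) hpt
  have ht1 : t ≠ 1 := by
    rintro rfl
    rw [orderOf_one, Nat.dvd_one] at hpt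
    exact hp.out.ne_one hpt
  have h2 : ∑ χ ∈ Q₂, (χ : S → ℂ) 1 * (χ : S → ℂ) t = 0 := by
    have h3 := CharDeep.FrobKernel.sum_degree_mul_apply t
    rw [if_neg ht1, ← Finset.sum_filter_add_sum_filter_not Finset.univ (fun χ => χ ∈ principalBlock N S)] at h3
    rw [h1, zero_add] at h3
    exact h3
  have hs1 : ∀ χ ∈ Q₁, sig hk χ ∈ Q₁ := by
    intro χ hχ
    rw [hQ₁, Finset.mem_filter] at hχ ⊢
    exact ⟨Finset.mem_univ _, sig_mem_principalBlock hk hχ.2⟩
  have hs2 : ∀ χ ∈ Q₂, sig hk χ ∈ Q₂ := by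
    intro χ hχ
    rw [hQ₂, Finset.mem_filter] at hχ ⊢
    refine ⟨Finset.mem_univ _, fun h => hχ.2 ?_⟩
    have h3 : ∀ (m : ℕ) (ξ : IrrCharacter S), ξ ∈ principalBlock N S → (sig hk)^[m] ξ ∈ principalBlock N S := by
      intro m
      induction m with
      | zero => intro ξ h; exact h
      | succ m ih =>
        intro ξ h
        rw [Function.iterate_succ_apply]
        exact ih _ (sig_mem_principalBlock hk h)
    have h4 := h3 (2 ^ e - 1) _ h
    rw [← Function.iterate_succ_apply] at h4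
    have h5 : (sig hk)^[(2 ^ e - 1).succ] χ = χ := by
      apply Subtype.ext
      funext g
      rw [sig_iter, Nat.succ_eq_add_one, Nat.sub_add_cancel Nat.one_le_two_pow, he]
    rwa [h5] at h4
  let I : IrrCharacter S := ⟨fun _ => 1, Cfsg.Agent.Blocks.Basic.isIrrCharacter_one⟩
  have hI : Good (I : S → ℂ) := Cfsg.Agent.H329.K4.good_one hC
  have hIN : I ∈ principalBlock N S := Blocks.PrincipalSection.one_mem_principalBlock
  obtain ⟨c, hc, hcg, hcs⟩ := exists_new_in hC hk Q₁ hs1 ht h1 {I} (fun χ hχ => by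
    rw [Finset.mem_singleton] at hχ
    rw [hχ]
    exact ⟨by simp [hQ₁, hIN], hI⟩) (n := 1) odd_one (by
    rw [Finset.sum_singleton]
    show (1 : ℂ) = _
    simp)
  obtain ⟨d, hd, hdg, hds⟩ := exists_new_in hC hk Q₂ hs2 ht h2 {a, b} (fun χ hχ => by
    rw [Finset.mem_insert, Finset.mem_singleton] at hχ
    rcases hχ with rfl | rfl
    · exact ⟨by simp [hQ₂, haN], ha⟩
    · exact ⟨by simp [hQ₂, hbN], hb⟩) hn (by
    rw [Finset.sum_pair hab, hsum])
  have hcN : c ∈ principalBlock N S := (Finset.mem_filter.1 hc).2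
  have hdN : d ∉ principalBlock N S := (Finset.mem_filter.1 hd).2
  rw [Finset.mem_singleton] at hcs
  rw [Finset.mem_insert, Finset.mem_singleton, not_or] at hds
  have n1 : ∀ {x y : IrrCharacter S}, x ∈ principalBlock N S → y ∉ principalBlock N S → x ≠ y := by
    rintro x y hx hy rfl
    exact hy hx
  let T : Finset (S → ℂ) := ({I, c, a, b, d} : Finset (IrrCharacter S)).image Subtype.val
  refine Cfsg.Agent.H329.K4.good5_of_finset T ?_ ?_
  · intro χ hχ
    obtain ⟨ξ, hξ, rfl⟩ := Finset.mem_image.1 hχ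
    simp only [Finset.mem_insert, Finset.mem_singleton] at hξ
    rcases hξ with rfl | rfl | rfl | rfl | rfl
    exacts [hI, hcg, ha, hb, hdg]
  · rw [Finset.card_image_of_injective _ Subtype.val_injective]
    rw [Finset.card_insert_of_notMem (by
        simp only [Finset.mem_insert, Finset.mem_singleton, not_or]
        exact ⟨fun h => hcs h.symm, n1 hIN haN, n1 hIN hbN, n1 hIN hdN⟩),
      Finset.card_insert_of_notMem (by
        simp only [Finset.mem_insert, Finset.mem_singleton, not_or]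
        exact ⟨n1 hcN haN, n1 hcN hbN, n1 hcN hdN⟩),
      Finset.card_insert_of_notMem (by
        simp only [Finset.mem_insert, Finset.mem_singleton, not_or]
        exact ⟨hab, fun h => hds.1 h.symm⟩),
      Finset.card_insert_of_notMem (by
        simp only [Finset.mem_singleton]
        exact fun h => hds.2 h.symm),
      Finset.card_singleton]

/-- **A criterion for a character to be outside the principal `p`-block**: `y` of order prime to `p` commutes with
`x` of order `p`, `p² ∤ |S|`, the value `m` at `x y` is not congruent to the degree. -/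
theorem notMem_of_value {p : ℕ} [hp : Fact p.Prime] {N : Ideal AlgInt} (hN : IsPModular p N)
    (hsq : ¬ p ^ 2 ∣ Nat.card S) {x y : S} (hx : orderOf x = p) (hxy : Commute x y) (hy : ¬ p ∣ orderOf y)
    (χ : IrrCharacter S) {m : ℤ} (hm : (χ : S → ℂ) (x * y) = m)
    (hne : ¬ (p : ℤ) ∣ (charDegree (χ : S → ℂ) : ℤ) - m) (hdeg : ¬ p ∣ charDegree (χ : S → ℂ)) :
    χ ∉ principalBlock N S := by
  intro hχ
  have hNp : N.IsPrime := isPrime_of_isPModular hN
  have h1 := hχ y
  -- the index of the centraliser is prime to `p`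
  have hi : ¬ p ∣ (Subgroup.centralizer ({y} : Set S)).index := by
    intro h
    apply hsq
    rw [← (Subgroup.centralizer ({y} : Set S)).card_mul_index, pow_two]
    refine mul_dvd_mul ?_ h
    have h3 : x ∈ Subgroup.centralizer ({y} : Set S) := Subgroup.mem_centralizer_singleton_iff.2 hxy
    have h4 := orderOf_dvd_natCard (⟨x, h3⟩ : Subgroup.centralizer ({y} : Set S))
    rwa [← Subgroup.orderOf_coe, show ((⟨x, h3⟩ : Subgroup.centralizer ({y} : Set S)) : S) = x from rfl, hx] at h4
  have hone := Cfsg.Agent.Blocks.Basic.irr_one_eq_charDegree χ.2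
  have hdC : ((charDegree (χ : S → ℂ) : ℕ) : ℂ) ≠ 0 := by
    intro h
    have h2 : charDegree (χ : S → ℂ) = 0 := by exact_mod_cast h
    rw [h2] at hdeg
    exact hdeg (dvd_zero p)
  -- the value at `y` is congruent to `m`
  have h2 : MemLocalIdeal N ((χ : S → ℂ) (x * y) - (χ : S → ℂ) y) := by
    have h3 := Cfsg.Agent.CharactersDeep.ModCongr.memLocalIdeal_character_sub hN χ.2 (x * y) x
      (Cfsg.Agent.Blocks.PPart.isPPart_mul hxy ⟨1, by rw [hx, pow_one]⟩ hy)
    rwa [inv_mul_cancel_left] at h3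
  rw [hm] at h2
  -- multiply out
  have h3 : centralChar (fun _ : S => (1 : ℂ)) y - centralChar (χ : S → ℂ) y =
      ((Subgroup.centralizer ({y} : Set S)).index : ℂ) * ((χ : S → ℂ) 1 - (χ : S → ℂ) y) *
        ((charDegree (χ : S → ℂ) : ℕ) : ℂ)⁻¹ := by
    unfold centralChar
    rw [hone]
    field_simp
  rw [h3] at h1
  have h4 : MemLocalIdeal N (((Subgroup.centralizer ({y} : Set S)).index : ℂ) * ((χ : S → ℂ) 1 - (χ : S → ℂ) y)) := by
    have h5 := memLocalIdeal_mul_right h1 (memLocalRing_natCast (M := N) (charDegree (χ : S → ℂ)))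
    rwa [mul_assoc, inv_mul_cancel₀ hdC, mul_one] at h5
  have h5 : MemLocalIdeal N ((χ : S → ℂ) 1 - (χ : S → ℂ) y) := by
    have h6 := memLocalIdeal_mul_right h4 (memLocalRing_inv_natCast hN hi)
    have hi0 : ((Subgroup.centralizer ({y} : Set S)).index : ℂ) ≠ 0 :=
      Nat.cast_ne_zero.2 Subgroup.index_ne_zero_of_finite
    have h7 : ((Subgroup.centralizer ({y} : Set S)).index : ℂ) * ((χ : S → ℂ) 1 - (χ : S → ℂ) y) *
        ((Subgroup.centralizer ({y} : Set S)).index : ℂ)⁻¹ = (χ : S → ℂ) 1 - (χ : S → ℂ) y := by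
      field_simp
    rwa [h7] at h6
  have h6 : MemLocalIdeal N (((charDegree (χ : S → ℂ) : ℤ) - m : ℤ) : ℂ) := by
    have h7 : (((charDegree (χ : S → ℂ) : ℤ) - m : ℤ) : ℂ) =
        ((χ : S → ℂ) 1 - (χ : S → ℂ) y) - ((m : ℂ) - (χ : S → ℂ) y) := by
      rw [hone]
      push_cast
      ring
    rw [h7]
    exact memLocalIdeal_sub h5 h2
  rw [memLocalIdeal_intCast_iff hN] at h6
  exact hne h6

end Cfsg.Agent.H593.K4
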